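import Cfsg.Agent.SPOR.A10.HePin
import Cfsg.Agent.SPOR.A10.HeCls

/-!
A simple group of the order of the Held group with a centraliser of shape `2^(1+6).SL(3,2)`.
-/

set_option autoImplicit false

namespace CL.A10.Hd

open CL.LX Subgroup

theorem iso_He_of_shape {G : Type*} [Group G] [Finite G] [IsSimpleGroup G] {t : G}
    (ht : orderOf t = 2) {Q : Subgroup (centralizer ({t} : Set G))} [hn : Q.Normal]
    (hQ : Cfsg.IsExtraspecial 2 Q) (hcard : Nat.card Q = 2 ^ 7)
    (h2c : centralizer (Q : Set (centralizer ({t} : Set G))) ≤ Q)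
    (e : centralizer ({t} : Set G) ⧸ Q ≃* SL3) (hG : Nat.card G = 4030387200) :
    Nonempty (G ≃* Cfsg.Spor.He) := by
  have htm : t ∈ centralizer ({t} : Set G) := mem_centralizer_singleton_iff.2 rfl
  have hc : ∀ x : centralizer ({t} : Set G), x * ⟨t, htm⟩ = ⟨t, htm⟩ * x := fun x =>
    Subtype.ext (mem_centralizer_singleton_iff.1 x.2)
  have htQ : (⟨t, htm⟩ : centralizer ({t} : Set G)) ∈ Q := h2c fun x _ => hc x
  have hE := (es_of_isExtraspecial hQ htQ (fun k => ne_one_of_orderOf ht (congrArg Subtype.val k))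
    fun x _ => hc x).map (centralizer ({t} : Set G)).subtype fun _ _ k => Subtype.ext k
  have hL : LX (Q.map (centralizer ({t} : Set G)).subtype) t := lx_of hE (fun x hx => by
    have hx' : x ∈ centralizer ({t} : Set G) :=
      mem_centralizer_singleton_iff.2 (hx t hE.z_mem).symm
    exact ⟨⟨x, hx'⟩, h2c fun y hy => Subtype.ext (hx y ⟨y, hy, rfl⟩), rfl⟩) fun x hx =>
      mem_normalizer_fintype (by
        rintro _ ⟨y, hy, rfl⟩
        exact ⟨_, hn.conj_mem y hy ⟨x, hx⟩, rfl⟩)
  have h7 := set7_of hL hcard e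
  have := CL.BS.not_isolated_of_simple (G := G) (fun hc => by
    obtain ⟨a, -, b, -, hab⟩ := hL.nonab
    exact hab (hc.1.1 a b)) t
  simp only [Cfsg.IsIsolatedInvolution, ht, true_and, not_forall] at this
  obtain ⟨g, h, hne⟩ := this
  rcases h7.pin h.symm.eq hne with ⟨S, -⟩ | ⟨-, k⟩
  · rcases S.classify_simple with ⟨⟨f⟩⟩ | ⟨⟨f⟩⟩ | h
    · exact absurd ((Nat.card_congr f.toEquiv).trans card_SL5) (by rw [hG]; norm_num)
    · exact absurd ((Nat.card_congr f.toEquiv).trans Golay.card_M24) (by rw [hG]; norm_num)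
    · exact h
  · obtain ⟨M, -⟩ := h7.exists_md
    have := (centralizer ({t} : Set G)).index_mul_card
    rw [M.card, hG] at this
    omega

end CL.A10.Hd
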